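import Mathlib
import Cfsg.Agent.Linear.Transvection
import Cfsg.Agent.ClassicalMax.FieldExceptionSix
import Cfsg.Agent.GeoClasses.TransvGen

/-!
Elementary transvections inside a group containing the rational ones.
-/

set_option autoImplicit false
set_option linter.unusedSectionVars false
set_option linter.style.haveILetI false

namespace Cfsg.Agent.MaxSub.SubfieldMax

open Matrix Cfsg.Geo
open scoped MatrixGroups Matrix

variable {ι : Type} [Fintype ι] [DecidableEq ι] {F : Type*} [Field F]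

/-- The standard vector. -/
abbrev ev (F : Type*) [Field F] {ι : Type} [DecidableEq ι] (i : ι) : ι → F := Pi.single i 1

/-- `1 + u ⊗ a` belongs to `M`. -/
def InM (M : Subgroup (GL ι F)) (u a : ι → F) : Prop :=
  ∃ g ∈ M, (g : Matrix ι ι F) = 1 + vecMulVec u a

theorem ev_dot (i : ι) (v : ι → F) : ev F i ⬝ᵥ v = v i := by simp [ev]

theorem dot_ev (i : ι) (v : ι → F) : v ⬝ᵥ ev F i = v i := by simp [ev]

theorem ev_dot_ev {i j : ι} (h : i ≠ j) : ev F i ⬝ᵥ ev F j = 0 := by simp [ev_dot, ev, h]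

theorem vmv_mul_vmv (u a w b : ι → F) : vecMulVec u a * vecMulVec w b = (a ⬝ᵥ w) • vecMulVec u b := by
  ext i j
  simp only [Matrix.mul_apply, vecMulVec_apply, Matrix.smul_apply, smul_eq_mul, dotProduct, Finset.sum_mul]
  exact Finset.sum_congr rfl fun k _ => by ring

theorem vmv_mul_vmv_zero {a w : ι → F} (h : a ⬝ᵥ w = 0) (u b : ι → F) :
    vecMulVec u a * vecMulVec w b = 0 := by
  rw [vmv_mul_vmv, h, zero_smul]

variable {M : Subgroup (GL ι F)}

theorem InM.congr {u a u' a' : ι → F} (h : InM M u a) (he : vecMulVec u' a' = vecMulVec u a) : InM M u' a' := by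
  obtain ⟨g, hg, e⟩ := h
  exact ⟨g, hg, by rw [e, he]⟩

theorem inM_smul_left {c : F} {u a : ι → F} : InM M (c • u) a ↔ InM M u (c • a) := by
  have e : vecMulVec (c • u) a = vecMulVec u (c • a) := by rw [smul_vecMulVec, vecMulVec_smul]
  exact ⟨fun h => h.congr e.symm, fun h => h.congr e⟩

theorem InM.mul {u a w b u' a' : ι → F} (h : InM M u a) (h' : InM M w b) (h0 : a ⬝ᵥ w = 0)
    (he : vecMulVec u' a' = vecMulVec u a + vecMulVec w b) : InM M u' a' := by
  obtain ⟨g, hg, eg⟩ := h
  obtain ⟨g', hg', eg'⟩ := h'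
  refine ⟨g * g', mul_mem hg hg', ?_⟩
  rw [Units.val_mul, eg, eg', add_mul, one_mul, mul_add, mul_one, vmv_mul_vmv_zero h0, add_zero, he]
  abel

theorem InM.add_right {u a b : ι → F} (h : InM M u a) (h' : InM M u b) (h0 : a ⬝ᵥ u = 0) : InM M u (a + b) :=
  h.mul h' h0 (vecMulVec_add _ _ _)

theorem InM.conj {u a : ι → F} (h : InM M u a) {σ : GL ι F} (hσ : σ ∈ M) :
    InM M ((σ : Matrix ι ι F) *ᵥ u) (a ᵥ* ((σ⁻¹ : GL ι F) : Matrix ι ι F)) := by
  obtain ⟨g, hg, eg⟩ := h
  refine ⟨σ * g * σ⁻¹, mul_mem (mul_mem hσ hg) (inv_mem hσ), ?_⟩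
  rw [Units.val_mul, Units.val_mul, eg, mul_add, mul_one, add_mul, ← Units.val_mul, mul_inv_cancel, Units.val_one,
    Matrix.mul_vecMulVec, Matrix.vecMulVec_mul]

theorem inv_val_of_sq {g : GL ι F} {A : Matrix ι ι F} (e : (g : Matrix ι ι F) = 1 + A) (hA : A * A = 0) :
    ((g⁻¹ : GL ι F) : Matrix ι ι F) = 1 - A := by
  refine Units.inv_eq_of_mul_eq_one_right ?_
  rw [e, add_mul, one_mul, mul_sub, mul_one, hA]
  abel

/-- The commutator of two transvections. -/
theorem InM.comm {u a w b : ι → F} (h : InM M u a) (h' : InM M w b) (ha : a ⬝ᵥ u = 0) (hb : b ⬝ᵥ w = 0)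
    (hbu : b ⬝ᵥ u = 0) : InM M ((a ⬝ᵥ w) • u) b := by
  obtain ⟨g, hg, eg⟩ := h
  obtain ⟨g', hg', eg'⟩ := h'
  refine ⟨g * g' * g⁻¹ * g'⁻¹, mul_mem (mul_mem (mul_mem hg hg') (inv_mem hg)) (inv_mem hg'), ?_⟩
  rw [Units.val_mul, Units.val_mul, Units.val_mul, inv_val_of_sq eg (vmv_mul_vmv_zero ha _ _),
    inv_val_of_sq eg' (vmv_mul_vmv_zero hb _ _), eg, eg', smul_vecMulVec, ← vmv_mul_vmv]
  have hA := vmv_mul_vmv_zero ha u a
  have hB := vmv_mul_vmv_zero hb w b
  have hBA := vmv_mul_vmv_zero hbu w a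
  generalize vecMulVec u a = A at hA hBA ⊢
  generalize vecMulVec w b = B at hB hBA ⊢
  simp only [add_mul, mul_add, sub_mul, mul_sub, one_mul, mul_one, mul_assoc, hA, hB, hBA, mul_zero, zero_mul,
    add_zero, sub_zero, zero_add, zero_sub, neg_zero]
  abel

/-- All elementary transvections with parameter `c` lie in `M`. -/
def Asc (M : Subgroup (GL ι F)) (c : F) : Prop := ∀ i j : ι, i ≠ j → InM M (c • ev F i) (ev F j)

theorem exists_avoid (s : Finset ι) (h : s.card < Fintype.card ι) : ∃ i, i ∉ s := by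
  by_contra hc
  push Not at hc
  rw [Finset.eq_univ_of_forall hc, Finset.card_univ] at h
  exact lt_irrefl _ h

theorem asc_of_one (h3 : 3 ≤ Fintype.card ι) (h1 : Asc M 1) {c : F} {i j : ι} (hij : i ≠ j)
    (h : InM M (c • ev F i) (ev F j)) : Asc M c := by
  have hrow : ∀ a b d : ι, a ≠ b → a ≠ d → b ≠ d → InM M (c • ev F a) (ev F b) → InM M (c • ev F a) (ev F d) := by
    intro a b d hab had hbd ha
    have := ha.comm (h1 b d hbd) (by rw [dotProduct_smul, ev_dot_ev hab.symm, smul_zero])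
      (by rw [one_smul, ev_dot_ev hbd.symm]) (by rw [dotProduct_smul, ev_dot_ev had.symm, smul_zero])
    simpa [ev_dot, ev] using this
  have hcol : ∀ a b d : ι, a ≠ b → d ≠ b → d ≠ a → InM M (c • ev F a) (ev F b) → InM M (c • ev F d) (ev F b) := by
    intro a b d hab hdb hda ha
    have := (h1 d a hda).comm ha (by rw [one_smul, ev_dot_ev hda.symm])
      (by rw [dotProduct_smul, ev_dot_ev hab.symm, smul_zero]) (by rw [one_smul, ev_dot_ev hdb.symm])
    simpa [ev_dot, ev, smul_smul] using this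
  intro a b hab
  have hswap : InM M (c • ev F j) (ev F i) := by
    obtain ⟨k, hk⟩ := exists_avoid {i, j} (Finset.card_le_two.trans_lt h3)
    simp only [Finset.mem_insert, Finset.mem_singleton, not_or] at hk
    exact hrow _ _ _ (Ne.symm hk.2) hij.symm hk.1
      (hcol i k j (Ne.symm hk.1) (Ne.symm hk.2) hij.symm (hrow i j k hij (Ne.symm hk.1) (Ne.symm hk.2) h))
  have hi : ∀ d, i ≠ d → InM M (c • ev F i) (ev F d) := fun d hd => by
    by_cases hjd : j = d
    · exact hjd ▸ h
    · exact hrow i j d hij hd hjd h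
  by_cases hai : a = i
  · exact hai ▸ hi b (hai ▸ hab)
  by_cases hbi : b = i
  · subst hbi
    by_cases haj : a = j
    · exact haj ▸ hswap
    · exact hcol j b a hij.symm hai haj hswap
  exact hcol i b a (Ne.symm hbi) hab hai (hi b (Ne.symm hbi))

theorem Asc.add {c d : F} (hc : Asc M c) (hd : Asc M d) : Asc M (c + d) := by
  intro i j hij
  rw [inM_smul_left, add_smul]
  exact (inM_smul_left.mp (hc i j hij)).add_right (inM_smul_left.mp (hd i j hij))
    (by rw [smul_dotProduct, ev_dot_ev hij.symm, smul_zero])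

theorem Asc.mul (h3 : 3 ≤ Fintype.card ι) {c d : F} (hc : Asc M c) (hd : Asc M d) : Asc M (c * d) := by
  intro i j hij
  obtain ⟨k, hk⟩ := exists_avoid {i, j} (Finset.card_le_two.trans_lt h3)
  simp only [Finset.mem_insert, Finset.mem_singleton, not_or] at hk
  have := (hc i k (Ne.symm hk.1)).comm (hd k j hk.2)
    (by rw [dotProduct_smul, ev_dot_ev hk.1, smul_zero]) (by rw [dotProduct_smul, ev_dot_ev (Ne.symm hk.2), smul_zero])
    (by rw [dotProduct_smul, ev_dot_ev hij.symm, smul_zero])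
  simpa [ev_dot, ev, smul_smul, mul_comm] using this

variable [Fintype F] {F₀ : Subfield F}

/-- The parameters form a subfield. -/
theorem specialLinear_le_of_asc [Nontrivial ι] (h3 : 3 ≤ Fintype.card ι)
    (hmid : ∀ L : Subfield F, F₀ ≤ L → L = F₀ ∨ L = ⊤) (h0 : ∀ c ∈ F₀, Asc M c) {c : F} (hc : Asc M c)
    (hcF : c ∉ F₀) : specialLinear ι F ≤ M := by
  classical
  have hpow : ∀ {x : F}, Asc M x → ∀ k : ℕ, Asc M (x ^ k) := fun {x} hx k => by
    induction k with
    | zero => simpa using h0 1 (one_mem _)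
    | succ k ih => rw [pow_succ]; exact ih.mul h3 hx
  let L : Subfield F :=
    { carrier := {x | Asc M x}
      mul_mem' := fun hx hy => Asc.mul h3 hx hy
      one_mem' := h0 1 (one_mem _)
      add_mem' := fun hx hy => Asc.add hx hy
      zero_mem' := h0 0 (zero_mem _)
      neg_mem' := fun {x} hx => by
        have := Asc.mul h3 (h0 (-1) (neg_mem (one_mem _))) hx
        simpa using this
      inv_mem' := fun x hx => by
        by_cases hx0 : x = 0
        · simp only [hx0, _root_.inv_zero]; exact h0 0 (zero_mem _)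
        have h2 : 2 ≤ Fintype.card F := Fintype.one_lt_card
        have e : x⁻¹ = x ^ (Fintype.card F - 2) := by
          refine (eq_inv_of_mul_eq_one_left ?_).symm
          rw [← pow_succ, show Fintype.card F - 2 + 1 = Fintype.card F - 1 by omega,
            FiniteField.pow_card_sub_one_eq_one x hx0]
        rw [e]; exact hpow hx _ }
  have hL : L = ⊤ := (hmid L h0).resolve_left fun e => hcF (e ▸ hc)
  intro g hg
  rw [Cfsg.Agent.GeoClasses.mem_specialLinear_iff] at hg
  have key : ∀ A : Matrix.SpecialLinearGroup ι F, Matrix.SpecialLinearGroup.toGL A ∈ M := by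
    intro A
    refine Cfsg.Agent.Linear.transvection_induction
      (fun A => Matrix.SpecialLinearGroup.toGL A ∈ M) (fun i j hij x => ?_) (fun A B hA hB => ?_) A
    · obtain ⟨g', hg', e⟩ := (show x ∈ L from hL ▸ Subfield.mem_top x) i j hij
      convert hg' using 1
      refine Units.ext ?_
      rw [e]
      ext a b
      simp [Matrix.SpecialLinearGroup.transvection_coe, vecMulVec_apply, Matrix.single, ev, Pi.single_apply,
        eq_comm, ite_and]
      split_ifs <;> rfl
    · rw [map_mul]; exact mul_mem hA hB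
  convert key ⟨(g : Matrix ι ι F), hg⟩ using 1
  exact Units.ext rfl

/-- Some coordinates of `x` have ratio outside `F₀`. -/
def Irr (F₀ : Subfield F) (x : ι → F) : Prop := ∃ j k, x j ≠ 0 ∧ x k / x j ∉ F₀

theorem not_irr {x : ι → F} (hx : x ≠ 0) (h : ¬ Irr F₀ x) :
    ∃ μ : F, μ ≠ 0 ∧ ∃ w : ι → F₀, x = fun i => μ * (w i : F) := by
  obtain ⟨j, hj⟩ := Function.ne_iff.mp hx
  simp only [Irr, not_exists, not_and, not_not] at h
  exact ⟨x j, hj, fun i => ⟨x i / x j, h j i hj⟩, funext fun i => (mul_div_cancel₀ (x i) hj).symm⟩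

theorem le_subfieldSubgroup_of_columns [Nonempty ι] (hEl : ∀ c ∈ F₀, Asc M c)
    (h : ∀ g ∈ M, ∀ i, ¬ Irr F₀ fun k => (g : Matrix ι ι F) k i) : M ≤ subfieldSubgroup F₀ 1 := by
  classical
  intro g hg
  have hcol : ∀ g ∈ M, ∀ i, ∃ μ : F, μ ≠ 0 ∧ ∃ w : ι → F₀, ∀ k, (g : Matrix ι ι F) k i = μ * (w k : F) := by
    intro g hg i
    have hne : (fun k => (g : Matrix ι ι F) k i) ≠ 0 := fun e =>
      Matrix.GeneralLinearGroup.det_ne_zero g (Matrix.det_eq_zero_of_column_eq_zero i fun k => congrFun e k)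
    obtain ⟨μ, hμ, w, e⟩ := not_irr hne (h g hg i)
    exact ⟨μ, hμ, w, fun k => congrFun e k⟩
  choose μ hμ w hw using hcol g hg
  let B : Matrix ι ι F₀ := Matrix.of fun k i => w i k
  have hgB : (g : Matrix ι ι F) = B.map F₀.subtype * Matrix.diagonal μ := by
    ext k i
    rw [Matrix.mul_diagonal, hw i k, mul_comm]
    rfl
  have hB : B.det ≠ 0 := fun h0 => Matrix.GeneralLinearGroup.det_ne_zero g (by
    rw [hgB, Matrix.det_mul, show B.map F₀.subtype = F₀.subtype.mapMatrix B from rfl, ← RingHom.map_det, h0,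
      map_zero, zero_mul])
  have hinv : B⁻¹ * B = 1 := Matrix.nonsing_inv_mul _ (isUnit_iff_ne_zero.mpr hB)
  have hratio : ∀ i j, μ j / μ i ∈ F₀ := by
    intro i j
    by_cases hij : i = j
    · rw [hij, div_self (hμ j)]; exact one_mem _
    obtain ⟨e₀, he₀, ee⟩ := hEl 1 (one_mem _) i j hij
    obtain ⟨ν, hν, u, hu⟩ := hcol _ (mul_mem hg he₀) j
    have hv : (fun k => (g : Matrix ι ι F) k j + (g : Matrix ι ι F) k i) =
        ν • (fun k => (u k : F)) := funext fun k => by
      rw [Pi.smul_apply, smul_eq_mul, ← hu k, Units.val_mul, ee, mul_add, mul_one, Matrix.add_apply,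
        Matrix.mul_vecMulVec, vecMulVec_apply]
      simp [ev]
    have hl : ((g : Matrix ι ι F) *ᵥ (Pi.single j (1 : F) + Pi.single i 1)) =
        (B.map F₀.subtype) *ᵥ (μ j • Pi.single j (1 : F) + μ i • Pi.single i 1) := by
      rw [hgB, ← Matrix.mulVec_mulVec]
      congr 1
      ext k
      simp [Matrix.mulVec_diagonal, Pi.single_apply]
      split_ifs <;> simp_all
    have hv' : ((g : Matrix ι ι F) *ᵥ (Pi.single j (1 : F) + Pi.single i 1)) = ν • (fun k => (u k : F)) := by
      rw [← hv, Matrix.mulVec_add]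
      ext k; simp
    rw [hl] at hv'
    have := congrArg ((B⁻¹).map F₀.subtype *ᵥ ·) hv'
    simp only [Matrix.mulVec_mulVec, Matrix.mulVec_smul, ← Matrix.map_mul, hinv, Matrix.map_one _ (map_zero _) (map_one _),
      Matrix.one_mulVec] at this
    set z := (B⁻¹).map F₀.subtype *ᵥ (fun k => (u k : F)) with hz
    have hzF : ∀ k, z k ∈ F₀ := fun k => by
      rw [hz, show (fun k => (u k : F)) = F₀.subtype ∘ u from rfl, ← RingHom.map_mulVec]
      exact SetLike.coe_mem _
    have e1 := congrFun this j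
    have e2 := congrFun this i
    simp [Ne.symm hij] at e1
    simp [hij] at e2
    rw [e1, e2, mul_div_mul_left _ _ hν]
    exact div_mem (hzF j) (hzF i)
  obtain ⟨i₀⟩ := ‹Nonempty ι›
  refine Cfsg.Agent.ClassicalMax.mem_subfieldSubgroup_of_columns (s := (μ i₀)⁻¹) (inv_ne_zero (hμ i₀)) fun j => ?_
  refine ⟨fun k => μ j / μ i₀ * (w j k : F), fun k => mul_mem (hratio i₀ j) (w j k).2, ?_⟩
  ext k
  rw [Pi.smul_apply, smul_eq_mul, Units.val_one, Matrix.one_mulVec, Matrix.one_mulVec, Matrix.mulVec_single_one,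
    Matrix.col_apply, hw j k]
  ring

/-- An intermediate field of prime degree. -/
theorem mid_of_prime {r : ℕ} (hr : r.Prime) (hcard : Fintype.card F = Nat.card F₀ ^ r) :
    ∀ L : Subfield F, F₀ ≤ L → L = F₀ ∨ L = ⊤ := by
  intro L hL
  have hfr : Module.finrank F₀ F = r := by
    have h := Module.natCard_eq_pow_finrank (K := F₀) (V := F)
    rw [Nat.card_eq_fintype_card, hcard] at h
    exact (Nat.pow_right_injective (Finite.one_lt_card (α := F₀)) h).symm
  haveI := Subalgebra.isSimpleOrder_of_finrank_prime F₀ F (hfr ▸ hr)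
  let S : Subalgebra F₀ F :=
    { L.toSubsemiring with algebraMap_mem' := fun a => hL a.2 }
  rcases IsSimpleOrder.eq_bot_or_eq_top S with h | h
  · left
    refine le_antisymm (fun x hx => ?_) hL
    have : x ∈ (⊥ : Subalgebra F₀ F) := h ▸ (show x ∈ S from hx)
    obtain ⟨a, rfl⟩ := Algebra.mem_bot.mp this
    exact a.2
  · right
    rw [eq_top_iff]
    intro x _
    exact show x ∈ S from h ▸ Algebra.mem_top

end Cfsg.Agent.MaxSub.SubfieldMax
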