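import Cfsg.Agent.PSLTwoSub.DicksonGen
import Cfsg.Agent.MaxSub.Dickson.Finite
import Cfsg.Agent.MaxSub.Dickson.Maximal

/-!
Generation of `SL(2, F)` by transvection groups over a subfield of prime index, all characteristics.
-/

set_option autoImplicit false
set_option linter.unusedSectionVars false
set_option linter.style.haveILetI false

namespace Cfsg.Agent.MaxSub.SubfieldMax

open Matrix Cfsg.Agent.PSLTwoSub
open scoped MatrixGroups OnePoint Cfsg.Agent.MaxSub.Dickson

variable {F : Type*} [Field F]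

/-- Lower unitriangular. -/
def lo (z : F) : SL(2, F) := mk22 1 0 z 1 (by ring)

/-- Upper unitriangular. -/
def up (z : F) : SL(2, F) := mk22 1 z 0 1 (by ring)

theorem up_mul (z w : F) : up z * up w = up (z + w) := by
  apply Subtype.ext
  rw [Matrix.SpecialLinearGroup.coe_mul]
  simp [up, Matrix.mul_fin_two, add_comm]

theorem trace_lo_mul_up (z w : F) :
    Matrix.trace ((lo z * up w : SL(2, F)) : Matrix (Fin 2) (Fin 2) F) = 2 + z * w := by
  rw [Matrix.SpecialLinearGroup.coe_mul]
  simp [lo, up, Matrix.trace_fin_two]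
  ring

variable [Fintype F]

theorem eq_top_of_unipotents (F₀ : Subfield F) (hmid : ∀ L : Subfield F, F₀ ≤ L → L = F₀ ∨ L = ⊤)
    (H : Subgroup SL(2, F)) {l m₁ m₂ : F} (hl : l ≠ 0) (hm : m₁ ≠ 0) (hr : m₂ / m₁ ∉ F₀)
    (hL : ∀ a ∈ F₀, lo (a * l) ∈ H) (hU₁ : ∀ a ∈ F₀, up (a * m₁) ∈ H) (hU₂ : ∀ a ∈ F₀, up (a * m₂) ∈ H) :
    H = ⊤ := by
  classical
  obtain ⟨p, hpc, n, hp, hcard⟩ := FiniteField.card' F
  haveI : CharP F p := hpc
  haveI : Fact p.Prime := ⟨hp⟩
  let K := AlgebraicClosure F
  haveI : DecidableEq K := Classical.decEq K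
  set π : SL(2, F) →* PGL(2, F) := projHom (RingHom.id F) with hπ
  have hlo1 : lo l ∈ H := by simpa using hL 1 (one_mem _)
  have hu1 : ∀ a ∈ F₀, ∀ b ∈ F₀, up (a * m₁ + b * m₂) ∈ H := fun a ha b hb => by
    rw [← up_mul]; exact mul_mem (hU₁ a ha) (hU₂ b hb)
  -- the upper four-group
  have hdvd : p ^ 2 ∣ Nat.card (H.map π) := by
    let ν : Multiplicative (F₀ × F₀) →* (H.map π : Subgroup PGL(2, F)) :=
      MonoidHom.mk' (fun ab => ⟨π (up ((ab.toAdd.1 : F) * m₁ + (ab.toAdd.2 : F) * m₂)),
        _, hu1 _ ab.toAdd.1.2 _ ab.toAdd.2.2, rfl⟩) (fun x y => Subtype.ext (by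
          show π _ = π _ * π _
          rw [← map_mul, up_mul]
          congr 2
          simp only [toAdd_mul, Prod.fst_add, Prod.snd_add, Subfield.coe_add]
          ring))
    have hinj : Function.Injective ν := by
      rw [injective_iff_map_eq_one]
      intro x hx
      have h0 := (projHom_eq_one (RingHom.id F) (congrArg Subtype.val hx)).1
      simp [up] at h0
      obtain ⟨⟨a, ha⟩, ⟨b, hb⟩⟩ := x
      change a * m₁ + b * m₂ = 0 at h0
      by_cases hb0 : b = 0
      · subst hb0
        rw [zero_mul, add_zero, mul_eq_zero] at h0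
        obtain rfl := h0.resolve_right hm
        rfl
      · refine absurd ?_ hr
        have : m₂ / m₁ = -a / b := by
          rw [div_eq_div_iff hm hb0]; linear_combination h0
        rw [this]; exact div_mem (neg_mem ha) hb
    have h1 := Subgroup.card_dvd_of_injective ν hinj
    rw [Nat.card_congr Multiplicative.toAdd, Nat.card_prod, ← pow_two] at h1
    refine dvd_trans (pow_dvd_pow_of_dvd ?_ 2) h1
    haveI : CharP F₀ p := F₀.subtype.charP F₀.subtype.injective p
    haveI := Fintype.ofFinite F₀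
    obtain ⟨k, -, hk⟩ := FiniteField.card F₀ p
    rw [Nat.card_eq_fintype_card, hk]; exact dvd_pow_self p k.ne_zero
  have hsmall : ∀ N : ℕ, p ^ 2 ∣ N → p ≠ 2 → N = 12 ∨ N = 24 ∨ N = 60 → False := by
    intro N h1 h2 h3
    have hp3 : 3 ≤ p := by have := hp.two_le; omega
    have hNpos : 0 < N := by omega
    have hp8 : p < 8 := by
      by_contra hc
      have := Nat.le_of_dvd hNpos h1
      rcases h3 with rfl | rfl | rfl <;> nlinarith
    interval_cases p <;> rcases h3 with rfl | rfl | rfl <;> simp_all (config := { decide := true })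
  have key : ∀ F₁ : Subfield F, ∀ h : PGL(2, F),
      (H.map π).map (MulAut.conj h⁻¹).toMonoidHom ≤ (Dickson.subPGL F₁).range → F₁ = ⊤ := by
    intro F₁ h hle
    have hsq : ∀ g ∈ H, Matrix.trace (g : Matrix (Fin 2) (Fin 2) F) ^ 2 ∈ F₁ := fun g hg =>
      trace_sq_mem (RingHom.id F) F₁ h g (by
        have := hle ⟨_, ⟨g, hg, rfl⟩, rfl⟩
        simpa [MulAut.conj_apply, hπ] using this)
    have hprod : ∀ m, (∀ a ∈ F₀, up (a * m) ∈ H) → ∀ b ∈ F₀, b * l * m ∈ F₁ := by
      intro m hm' b hb
      have e₁ := hsq _ (mul_mem hlo1 (hm' b hb))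
      have e₂ := hsq _ (mul_mem hlo1 (hm' (-b) (neg_mem hb)))
      rw [trace_lo_mul_up] at e₁ e₂
      by_cases h2 : (2 : F) = 0
      · have hx : (b * l * m) ^ 2 ∈ F₁ := by
          convert e₁ using 1
          linear_combination (-2 - 2 * l * (b * m)) * h2
        have hp2 : p = 2 := by
          have h2' : ((2 : ℕ) : F) = 0 := by exact_mod_cast h2
          rcases (Nat.dvd_prime Nat.prime_two).mp ((CharP.cast_eq_zero_iff F p 2).mp h2') with h | h
          · exact absurd h hp.ne_one
          · exact h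
        have hq := FiniteField.pow_card (b * l * m)
        rw [hcard, hp2, show (2 : ℕ) ^ (n : ℕ) = 2 * 2 ^ ((n : ℕ) - 1) by
          rw [← pow_succ']; congr 1; have := n.pos; omega, pow_mul] at hq
        rw [← hq]; exact pow_mem hx _
      · have h8 : (2 * 2 * 2 : F) * (b * l * m) ∈ F₁ := by
          convert sub_mem e₁ e₂ using 1
          ring
        have h8' : (2 * 2 * 2 : F) ∈ F₁ := mul_mem (mul_mem (natCast_mem _ 2) (natCast_mem _ 2)) (natCast_mem _ 2)
        have := div_mem h8 h8'
        rwa [mul_div_cancel_left₀ _ (by simp [h2])] at this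
    have hc0 : l * m₁ ∈ F₁ := by simpa using hprod m₁ hU₁ 1 (one_mem _)
    have hc1 : m₂ / m₁ ∈ F₁ := by
      have := div_mem (by simpa using hprod m₂ hU₂ 1 (one_mem _) : l * m₂ ∈ F₁) hc0
      rwa [mul_div_mul_left _ _ hl] at this
    have hle0 : F₀ ≤ F₁ := fun a ha => by
      have := div_mem (hprod m₁ hU₁ a ha) hc0
      rwa [mul_assoc, mul_div_cancel_right₀ _ (mul_ne_zero hl hm)] at this
    exact (hmid F₁ hle0).resolve_left fun e => hr (e ▸ hc1)
  have hbig : Dickson.lsub F ≤ H.map π := by
    rcases Dickson.classifyF (K := K) (p := p) (H.map π) with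
      ⟨a, b, m, hpn, -, -, -, -⟩ | ⟨a, b, m, N, -, -, hN, hpn, -, hc, -⟩ | ⟨x, hfix, -⟩ |
      ⟨hp2, hc, -⟩ | ⟨hp2, hc, -⟩ | ⟨hp2, hc, -⟩ | ⟨F₁, h, -, he⟩ | ⟨F₁, h, -, -, he⟩
    · exact absurd ((dvd_pow_self p two_ne_zero).trans hdvd) hpn
    · rw [hc] at hdvd
      have hcop : Nat.Coprime (p ^ 2) N := Nat.Coprime.pow_left _ (hp.coprime_iff_not_dvd.2 hpn)
      have := Nat.le_of_dvd two_pos (hcop.dvd_of_dvd_mul_right hdvd)
      have := hp.two_le
      nlinarith
    · exfalso
      have h1 := hfix _ ⟨lo l, hlo1, rfl⟩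
      have h2 := hfix _ ⟨up m₁, by simpa using hU₁ 1 (one_mem _), rfl⟩
      change ProjGenLinGroup.mk (Matrix.SpecialLinearGroup.toGL
        (Matrix.SpecialLinearGroup.map (RingHom.id F) (lo l))) • x = x at h1
      change ProjGenLinGroup.mk (Matrix.SpecialLinearGroup.toGL
        (Matrix.SpecialLinearGroup.map (RingHom.id F) (up m₁))) • x = x at h2
      rw [Dickson.mk_smul] at h1 h2
      cases x using OnePoint.rec with
      | infty =>
        rw [OnePoint.smul_infty_eq_self_iff] at h1
        simp [lo] at h1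
        exact hl h1
      | coe x =>
        rw [OnePoint.smul_some_eq_ite] at h2
        simp [up] at h2
        exact hm h2
    · exact absurd hdvd fun h => hsmall _ h hp2 (Or.inl hc)
    · exact absurd hdvd fun h => hsmall _ h hp2 (Or.inr (Or.inl hc))
    · exact absurd hdvd fun h => hsmall _ h hp2 (Or.inr (Or.inr hc))
    · obtain rfl := key F₁ h he.le
      have h1 := Dickson.subPSL_le_subPGL (⊤ : Subfield F)
      rw [← he, Dickson.range_subPSL,
        show Dickson.subPGL (⊤ : Subfield F) = ProjGenLinGroup.map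
          (Subfield.topEquiv : (⊤ : Subfield F) ≃+* F).toRingHom from rfl, Dickson.map_lsub_eq] at h1
      have h2 := Subgroup.map_mono (f := (MulAut.conj h).toMonoidHom) h1
      rw [Dickson.map_conj_lsub, Subgroup.map_map] at h2
      convert h2 using 1
      ext y
      simp [MulAut.conj_apply, mul_assoc]
    · obtain rfl := key F₁ h (he.le.trans (Dickson.subPSL_le_subPGL _))
      have h1 := he.ge
      rw [Dickson.range_subPSL,
        show Dickson.subPGL (⊤ : Subfield F) = ProjGenLinGroup.map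
          (Subfield.topEquiv : (⊤ : Subfield F) ≃+* F).toRingHom from rfl, Dickson.map_lsub_eq] at h1
      have h2 := Subgroup.map_mono (f := (MulAut.conj h).toMonoidHom) h1
      rw [Dickson.map_conj_lsub, Subgroup.map_map] at h2
      convert h2 using 1
      ext y
      simp [MulAut.conj_apply, mul_assoc]
  have hmem : ∀ S : SL(2, F), S ∈ H ∨ -S ∈ H := by
    intro S
    obtain ⟨T, hT, hTS⟩ := hbig (show ProjGenLinGroup.mk (Matrix.SpecialLinearGroup.toGL S) ∈ Dickson.lsub F from ⟨S, rfl⟩)
    have : π (T * S⁻¹) = 1 := by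
      rw [map_mul, map_inv, mul_inv_eq_one, hTS]; rfl
    rw [← MonoidHom.mem_ker] at this
    obtain ⟨h01, h10, h00⟩ := projHom_eq_one (RingHom.id F) this
    have hd := (T * S⁻¹).2
    rw [Matrix.det_fin_two, h01, h10, ← h00, mul_zero, sub_zero] at hd
    rcases mul_self_eq_mul_self_iff.1 (hd.trans (one_mul 1).symm) with h | h
    · left
      have e : T * S⁻¹ = 1 := by
        apply Subtype.ext; ext i j
        fin_cases i <;> fin_cases j <;> simp [h01, h10, ← h00, h]
      exact mul_inv_eq_one.1 e ▸ hT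
    · right
      have e : T * S⁻¹ = -1 := by
        apply Subtype.ext; ext i j
        fin_cases i <;> fin_cases j <;> simp [h01, h10, ← h00, h]
      have : T = -S := by rw [← inv_mul_cancel_right T S, e, neg_one_mul]
      exact this ▸ hT
  have hw : (-1 : SL(2, F)) ∈ H := by
    let w : SL(2, F) := mk22 0 1 (-1) 0 (by ring)
    have e : w * w = -1 := by
      apply Subtype.ext
      rw [Matrix.SpecialLinearGroup.coe_mul]
      simp [w, Matrix.one_fin_two]
    rcases hmem w with h | h
    · exact e ▸ mul_mem h h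
    · have := mul_mem h h
      rwa [neg_mul_neg, e] at this
  rw [eq_top_iff]
  intro S _
  rcases hmem S with h | h
  · exact h
  · simpa using mul_mem hw h

end Cfsg.Agent.MaxSub.SubfieldMax
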