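import Cfsg.Agent.MaxSub.SubfieldMax.Basic
import Cfsg.Agent.MaxSub.SubfieldMax.SL2Gen
import Cfsg.Agent.MaxSub.Proper

/-!
The subfield group of prime index is maximal in `SL_n`.
-/

set_option autoImplicit false
set_option linter.unusedSectionVars false
set_option linter.style.haveILetI false

namespace Cfsg.Agent.MaxSub.SubfieldMax

open Matrix Cfsg.Geo
open scoped MatrixGroups Matrix

variable {ι : Type} [Fintype ι] [DecidableEq ι] {F : Type*} [Field F] [Fintype F]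
  {M : Subgroup (GL ι F)} {F₀ : Subfield F}

theorem InM.ev_ev {c : F} {i j : ι} (h : Asc M c) (hij : i ≠ j) : InM M (ev F i) (c • ev F j) :=
  inM_smul_left.mp (h i j hij)

/-- Quadratic case. -/
theorem exists_param_quadratic (h5 : 5 ≤ Fintype.card ι) (hq : Fintype.card F = Nat.card F₀ ^ 2)
    (hEl : ∀ c ∈ F₀, Asc M c) {x φ : ι → F} (ht : InM M x φ) (hφx : φ ⬝ᵥ x = 0) {i : ι} (hi : φ i ≠ 0)
    (hx : Irr F₀ x) : ∃ c, Asc M c ∧ c ∉ F₀ := by
  classical
  haveI := Fintype.ofFinite F₀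
  obtain ⟨j, k, hj, hc⟩ := hx
  have hcd : ∀ s : Finset ι, s.card ≤ 4 → ∃ y, y ∉ s := fun s hs => exists_avoid s (by omega)
  obtain ⟨l, hl⟩ := hcd {i, j, k} (Finset.card_le_three.trans (by norm_num))
  simp only [Finset.mem_insert, Finset.mem_singleton, not_or] at hl
  obtain ⟨a, ha⟩ := hcd {i, l} (Finset.card_le_two.trans (by norm_num))
  obtain ⟨b, hb⟩ := hcd {i, l, a} (Finset.card_le_three.trans (by norm_num))
  obtain ⟨d, hd⟩ := hcd {i, l, a, b} Finset.card_le_four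
  simp only [Finset.mem_insert, Finset.mem_singleton, not_or] at ha hb hd
  -- a rational functional killing `x`
  obtain ⟨u, v, hne, he⟩ := Fintype.exists_ne_map_eq_of_card_lt
    (fun z : F₀ × F₀ × F₀ => (z.1 : F) * x a + z.2.1 * x b + z.2.2 * x d) (by
      rw [hq, Fintype.card_prod, Fintype.card_prod, Nat.card_eq_fintype_card, pow_two]
      have := Fintype.one_lt_card (α := F₀)
      exact Nat.mul_lt_mul_of_pos_left (by nlinarith) (by omega))
  set ha' : F := (u.1 : F) - v.1 with hha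
  set hb' : F := (u.2.1 : F) - v.2.1 with hhb
  set hd' : F := (u.2.2 : F) - v.2.2 with hhd
  have mA : ha' ∈ F₀ := sub_mem u.1.2 v.1.2
  have mB : hb' ∈ F₀ := sub_mem u.2.1.2 v.2.1.2
  have mD : hd' ∈ F₀ := sub_mem u.2.2.2 v.2.2.2
  set h : ι → F := ha' • ev F a + hb' • ev F b + hd' • ev F d with hh
  have hhx : h ⬝ᵥ x = 0 := by
    simp only [hh, hha, hhb, hhd, add_dotProduct, smul_dotProduct, ev_dot, smul_eq_mul]
    linear_combination he
  have hh0 : ∀ y, y ≠ a → y ≠ b → y ≠ d → h y = 0 := fun y h1 h2 h3 => by simp [hh, ev, h1, h2, h3]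
  have hnz : ∃ y, (y = a ∨ y = b ∨ y = d) ∧ h y ≠ 0 ∧ h y ∈ F₀ := by
    have va : h a = ha' := by simp [hh, ev, Ne.symm hb.2.2, Ne.symm hd.2.2.1]
    have vb : h b = hb' := by simp [hh, ev, hb.2.2, Ne.symm hd.2.2.2]
    have vd : h d = hd' := by simp [hh, ev, hd.2.2.1, hd.2.2.2]
    by_cases z1 : ha' = 0
    · by_cases z2 : hb' = 0
      · by_cases z3 : hd' = 0
        · exact absurd (Prod.ext (Subtype.ext (sub_eq_zero.mp z1))
            (Prod.ext (Subtype.ext (sub_eq_zero.mp z2)) (Subtype.ext (sub_eq_zero.mp z3)))) hne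
        · exact ⟨d, by simp, vd ▸ z3, vd ▸ mD⟩
      · exact ⟨b, by simp, vb ▸ z2, vb ▸ mB⟩
    · exact ⟨a, by simp, va ▸ z1, va ▸ mA⟩
  obtain ⟨y, hy, hy0, hyF⟩ := hnz
  have hhi : h i = 0 := hh0 i (Ne.symm ha.1) (Ne.symm hb.1) (Ne.symm hd.1)
  have hhl : h l = 0 := hh0 l (Ne.symm ha.2) (Ne.symm hb.2.1) (Ne.symm hd.2.1)
  have h1 : InM M (ev F i) h := by
    refine ((InM.ev_ev (hEl _ mA) (Ne.symm ha.1)).add_right (InM.ev_ev (hEl _ mB) (Ne.symm hb.1)) ?_).add_right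
      (InM.ev_ev (hEl _ mD) (Ne.symm hd.1)) ?_
    · rw [smul_dotProduct, ev_dot_ev ha.1, smul_zero]
    · rw [add_dotProduct, smul_dotProduct, smul_dotProduct, ev_dot_ev ha.1, ev_dot_ev hb.1, smul_zero, smul_zero,
        add_zero]
  have h2 : InM M (φ i • x) h := by
    have := ht.comm h1 hφx (by rw [dot_ev, hhi]) hhx
    rwa [dot_ev] at this
  have hyl : y ≠ l := by rcases hy with rfl | rfl | rfl <;> tauto
  obtain ⟨m, hm⟩ := hcd {l, y} (Finset.card_le_two.trans (by norm_num))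
  simp only [Finset.mem_insert, Finset.mem_singleton, not_or] at hm
  have h3 : ∀ z, z ≠ l → Asc M (h y * (φ i * x z)) := by
    intro z hz
    have h4 := (hEl 1 (one_mem _) l z (Ne.symm hz)).comm h2 (by rw [dotProduct_smul, ev_dot_ev hz, smul_zero])
      (by rw [dotProduct_smul, hhx, smul_zero]) (by rw [dotProduct_smul, dot_ev, hhl, smul_zero])
    rw [one_smul, dotProduct_smul, ev_dot, smul_eq_mul] at h4
    have h5 := h4.comm (hEl 1 (one_mem _) y m (Ne.symm hm.2)) (by rw [dotProduct_smul, dot_ev, hhl, smul_zero])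
      (by rw [dotProduct_smul, ev_dot_ev hm.2, smul_zero])
      (by rw [dotProduct_smul, ev_dot_ev hm.1, smul_zero])
    rw [one_smul, dot_ev, smul_smul] at h5
    exact asc_of_one (by omega) (hEl 1 (one_mem _)) (Ne.symm hm.1) h5
  by_contra hcon
  push Not at hcon
  have e1 := hcon _ (h3 j (Ne.symm hl.2.1))
  have e2 := hcon _ (h3 k (Ne.symm hl.2.2))
  apply hc
  have := div_mem e2 e1
  rwa [mul_div_mul_left _ _ hy0, mul_div_mul_left _ _ hi] at this

section affine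

variable (x : ι → F) (i : ι) (η : Fin 2 → ι → F) (κ : ι → F)

/-- The operator attached to an affine map of the plane spanned by `e i` and `x`. -/
def Φ (S : Matrix (Fin 2) (Fin 2) F) (v : Fin 2 → F) : Matrix ι ι F :=
  1 + (Matrix.of fun a b => ![ev F i a, x a] b) * (S - 1) * Matrix.of η +
    vecMulVec ((Matrix.of fun a b => ![ev F i a, x a] b) *ᵥ v) κ

theorem Φ_one : Φ x i η κ 1 0 = 1 := by
  rw [Φ, sub_self, Matrix.mul_zero, Matrix.zero_mul, Matrix.mulVec_zero, zero_vecMulVec, add_zero, add_zero]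

theorem Φ_mul (h0i : η 0 ⬝ᵥ ev F i = 1) (h0x : η 0 ⬝ᵥ x = 0) (h1i : η 1 ⬝ᵥ ev F i = 0) (h1x : η 1 ⬝ᵥ x = 1)
    (hκi : κ ⬝ᵥ ev F i = 0) (hκx : κ ⬝ᵥ x = 0) (S T : Matrix (Fin 2) (Fin 2) F) (v w : Fin 2 → F) :
    Φ x i η κ S v * Φ x i η κ T w = Φ x i η κ (S * T) (S *ᵥ w + v) := by
  unfold Φ
  set E : Matrix ι (Fin 2) F := Matrix.of fun a b => ![ev F i a, x a] b with hE
  set R : Matrix (Fin 2) ι F := Matrix.of η with hR
  have hRE : R * E = 1 := by
    ext a b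
    rw [Matrix.mul_apply]
    fin_cases a <;> fin_cases b
    · exact h0i
    · exact h0x
    · exact h1i
    · exact h1x
  have hκE : κ ᵥ* E = 0 := by
    funext b
    fin_cases b
    · exact hκi
    · exact hκx
  have e1 : (E * (S - 1) * R) * (E * (T - 1) * R) = E * ((S - 1) * (T - 1)) * R := by
    rw [show (E * (S - 1) * R) * (E * (T - 1) * R) = E * (S - 1) * (R * E) * (T - 1) * R by
      simp only [Matrix.mul_assoc], hRE, Matrix.mul_one]
    simp only [Matrix.mul_assoc]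
  have e2 : (E * (S - 1) * R) * vecMulVec (E *ᵥ w) κ = vecMulVec (E *ᵥ ((S - 1) *ᵥ w)) κ := by
    rw [Matrix.mul_vecMulVec, Matrix.mulVec_mulVec, Matrix.mul_assoc, hRE, Matrix.mul_one, ← Matrix.mulVec_mulVec]
  have e3 : vecMulVec (E *ᵥ v) κ * (E * (T - 1) * R) = 0 := by
    rw [Matrix.vecMulVec_mul, ← Matrix.vecMul_vecMul, ← Matrix.vecMul_vecMul, hκE, Matrix.zero_vecMul,
      Matrix.zero_vecMul, vecMulVec_zero]
  have e4 : vecMulVec (E *ᵥ v) κ * vecMulVec (E *ᵥ w) κ = 0 := by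
    refine vmv_mul_vmv_zero ?_ _ _
    rw [Matrix.dotProduct_mulVec, hκE, zero_dotProduct]
  have e5 : S * T - 1 = (S - 1) + (T - 1) + (S - 1) * (T - 1) := by noncomm_ring
  have e6 : S *ᵥ w + v = v + w + (S - 1) *ᵥ w := by
    rw [Matrix.sub_mulVec, Matrix.one_mulVec]; abel
  rw [e5, e6]
  simp only [add_mul, mul_add, one_mul, mul_one, e1, e2, e3, e4, Matrix.mul_add, Matrix.add_mul, Matrix.mulVec_add,
    add_vecMulVec]
  abel

theorem Φ_upper (z w : F) :
    Φ x i η κ ((up z : SL(2, F)) : Matrix (Fin 2) (Fin 2) F) ![w, 0] = 1 + vecMulVec (ev F i) (z • η 1 + w • κ) := by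
  ext a b
  simp [Φ, up, Matrix.mul_apply, vecMulVec_apply, Fin.sum_univ_two, Matrix.mulVec, dotProduct]
  ring

theorem Φ_lower (z : F) :
    Φ x i η κ ((lo z : SL(2, F)) : Matrix (Fin 2) (Fin 2) F) 0 = 1 + vecMulVec x (z • η 0) := by
  ext a b
  simp [Φ, lo, Matrix.mul_apply, vecMulVec_apply, Fin.sum_univ_two, Matrix.mulVec_zero]
  ring

end affine

/-- Case of odd degree. -/
theorem exists_param_odd {r : ℕ} (h4 : 4 ≤ Fintype.card ι) (hr : 3 ≤ r) (hcard : Fintype.card F = Nat.card F₀ ^ r)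
    (hmid : ∀ L : Subfield F, F₀ ≤ L → L = F₀ ∨ L = ⊤) (hEl : ∀ c ∈ F₀, Asc M c) {x φ : ι → F}
    (ht : ∀ a ∈ F₀, InM M (a • x) φ) (hφx : φ ⬝ᵥ x = 0) {i j k : ι} (hij : i ≠ j) (hik : i ≠ k)
    (hi : φ i ≠ 0) (hj : x j ≠ 0) (hc : x k / x j ∉ F₀) : ∃ c, Asc M c ∧ c ∉ F₀ := by
  classical
  haveI := Fintype.ofFinite F₀
  have hjk : j ≠ k := fun e => hc (by rw [← e, div_self hj]; exact one_mem _)
  set c := x k / x j with hcdef
  set η : Fin 2 → ι → F := ![(φ i)⁻¹ • φ, (x j)⁻¹ • ev F j] with hη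
  set κ : ι → F := ev F k - c • ev F j with hκ
  have h0i : η 0 ⬝ᵥ ev F i = 1 := by simp [hη, dot_ev, hi]
  have h0x : η 0 ⬝ᵥ x = 0 := by simp [hη, hφx]
  have h1i : η 1 ⬝ᵥ ev F i = 0 := by simp [hη, ev, hij]
  have h1x : η 1 ⬝ᵥ x = 1 := by simp [hη, ev_dot, hj]
  have hκi : κ ⬝ᵥ ev F i = 0 := by simp [hκ, ev, hij, hik]
  have hκx : κ ⬝ᵥ x = 0 := by simp [hκ, ev_dot, hcdef, hj]
  have hmul := Φ_mul x i η κ h0i h0x h1i h1x hκi hκx
  let Lift : SL(2, F) → (Fin 2 → F) → Prop := fun S v =>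
    ∃ g ∈ M, (g : Matrix ι ι F) = Φ x i η κ (S : Matrix (Fin 2) (Fin 2) F) v
  have hlift_mul : ∀ S T v w, Lift S v → Lift T w → Lift (S * T) ((S : Matrix (Fin 2) (Fin 2) F) *ᵥ w + v) := by
    rintro S T v w ⟨g, hg, eg⟩ ⟨g', hg', eg'⟩
    exact ⟨g * g', mul_mem hg hg', by rw [Units.val_mul, eg, eg', hmul, Matrix.SpecialLinearGroup.coe_mul]⟩
  let Hm : Submonoid SL(2, F) :=
    { carrier := {S | ∃ v, Lift S v}
      mul_mem' := fun ⟨v, hv⟩ ⟨w, hw⟩ => ⟨_, hlift_mul _ _ _ _ hv hw⟩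
      one_mem' := ⟨0, 1, one_mem _, by rw [Matrix.SpecialLinearGroup.coe_one, Φ_one, Units.val_one]⟩ }
  let H : Subgroup SL(2, F) := { Hm with
    inv_mem' := fun {S} hS => by
      have e : S⁻¹ = S ^ (orderOf S - 1) := inv_eq_of_mul_eq_one_right (by
        rw [← pow_succ', Nat.sub_add_cancel (orderOf_pos S), pow_orderOf_eq_one])
      show S⁻¹ ∈ Hm
      rw [e]; exact Hm.pow_mem hS _ }
  have hs : ∀ a ∈ F₀, Lift (up (a * x j)) 0 := by
    intro a ha
    obtain ⟨g, hg, e⟩ := InM.ev_ev (hEl a ha) hij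
    refine ⟨g, hg, ?_⟩
    rw [show (0 : Fin 2 → F) = ![0, 0] by ext q; fin_cases q <;> rfl, Φ_upper, e]
    congr 2
    simp [hη, smul_smul, hj]
  have hu : ∀ a ∈ F₀, Lift (up (a * x k)) ![a, 0] := by
    intro a ha
    obtain ⟨g, hg, e⟩ := InM.ev_ev (hEl a ha) hik
    refine ⟨g, hg, ?_⟩
    rw [Φ_upper, e]
    congr 2
    simp only [hη, hκ, Matrix.cons_val_one, Matrix.cons_val_zero, smul_sub, smul_smul, hcdef, div_eq_mul_inv]
    rw [mul_assoc a]
    abel
  have hl : ∀ a ∈ F₀, Lift (lo (a * φ i)) 0 := by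
    intro a ha
    obtain ⟨g, hg, e⟩ := inM_smul_left.mp (ht a ha)
    refine ⟨g, hg, ?_⟩
    rw [Φ_lower, e]
    simp [hη, smul_smul, hi]
  have hfull : ∀ S, ∃ v, Lift S v := by
    intro S
    have := eq_top_of_unipotents F₀ hmid H (l := φ i) (m₁ := x j) (m₂ := x k) hi hj hc
      (fun a ha => ⟨0, hl a ha⟩) (fun a ha => ⟨0, hs a ha⟩) (fun a ha => ⟨_, hu a ha⟩)
    exact (show S ∈ H from this ▸ Subgroup.mem_top S)
  -- a parameter outside `F₀ + F₀ c`
  obtain ⟨z, hz⟩ : ∃ z : F, ∀ α ∈ F₀, ∀ β ∈ F₀, z ≠ x j * (α + β * c) := by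
    by_contra hcon
    push Not at hcon
    have hsur : Function.Surjective (fun ab : F₀ × F₀ => x j * ((ab.1 : F) + ab.2 * c)) := fun z => by
      obtain ⟨α, hα, β, hβ, e⟩ := hcon z
      exact ⟨(⟨α, hα⟩, ⟨β, hβ⟩), e.symm⟩
    have h1 := Fintype.card_le_of_surjective _ hsur
    rw [hcard, Fintype.card_prod, Nat.card_eq_fintype_card, ← pow_two] at h1
    exact absurd ((Nat.pow_le_pow_iff_right Fintype.one_lt_card).mp h1) (by omega)
  obtain ⟨v, hv⟩ := hfull (up z)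
  -- elementary transvections
  have hfin : ∀ α β, InM M (ev F i) (α • ev F j + β • ev F k) → Asc M α ∧ Asc M β := by
    intro α β hαβ
    obtain ⟨m, hm⟩ := exists_avoid {i, j, k} (Finset.card_le_three.trans_lt h4)
    simp only [Finset.mem_insert, Finset.mem_singleton, not_or] at hm
    have h0 : (α • ev F j + β • ev F k) ⬝ᵥ ev F i = 0 := by
      simp [ev, hij, hik]
    constructor
    · have := hαβ.comm (hEl 1 (one_mem _) j m (Ne.symm hm.2.1)) h0
        (by rw [dotProduct_smul, ev_dot_ev hm.2.1, smul_zero]) (ev_dot_ev hm.1)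
      simp [ev, hjk] at this
      exact asc_of_one (by omega) (hEl 1 (one_mem _)) (Ne.symm hm.1) this
    · have := hαβ.comm (hEl 1 (one_mem _) k m (Ne.symm hm.2.2)) h0
        (by rw [dotProduct_smul, ev_dot_ev hm.2.2, smul_zero]) (ev_dot_ev hm.1)
      simp [ev, Ne.symm hjk] at this
      exact asc_of_one (by omega) (hEl 1 (one_mem _)) (Ne.symm hm.1) this
  have hget : ∀ z w, Lift (up z) ![w, 0] → InM M (ev F i) ((z * (x j)⁻¹ - w * c) • ev F j + w • ev F k) := by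
    rintro z w ⟨g, hg, e⟩
    refine ⟨g, hg, ?_⟩
    rw [e, Φ_upper]
    congr 2
    simp only [hη, hκ, Matrix.cons_val_one, Matrix.cons_val_zero, smul_sub, smul_smul, sub_smul]
    abel
  by_contra hcon
  push Not at hcon
  by_cases hv1 : v 1 = 0
  · rw [show v = ![v 0, 0] by ext q; fin_cases q <;> simp [hv1]] at hv
    obtain ⟨a1, a2⟩ := hfin _ _ (hget _ _ hv)
    refine hz _ (hcon _ a1) _ (hcon _ a2) ?_
    field_simp
    ring
  · obtain ⟨gs, hgs, es⟩ := hs 1 (one_mem _)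
    obtain ⟨gl, hgl, el⟩ := hv
    rw [one_mul] at es
    set U : Matrix (Fin 2) (Fin 2) F := ((up (x j) : SL(2, F)) : Matrix (Fin 2) (Fin 2) F) with hU
    set Z : Matrix (Fin 2) (Fin 2) F := ((up z : SL(2, F)) : Matrix (Fin 2) (Fin 2) F) with hZ
    have hcomm : U * Z = Z * U := by
      rw [hU, hZ, ← Matrix.SpecialLinearGroup.coe_mul, ← Matrix.SpecialLinearGroup.coe_mul, up_mul, up_mul, add_comm]
    have e1 : ((gs * gl : GL ι F) : Matrix ι ι F) = Φ x i η κ (U * Z) (U *ᵥ v) := by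
      rw [Units.val_mul, es, el, hmul, add_zero]
    have e2 : ((gl * gs : GL ι F) : Matrix ι ι F) = Φ x i η κ (U * Z) v := by
      rw [Units.val_mul, es, el, hmul, Matrix.mulVec_zero, zero_add, hcomm]
    have h3 : Lift (up 0) ![x j * v 1, 0] := by
      refine ⟨gs * gl * (gl * gs)⁻¹, mul_mem (mul_mem hgs hgl) (inv_mem (mul_mem hgl hgs)), ?_⟩
      rw [Units.val_mul, Units.mul_inv_eq_iff_eq_mul, e1, e2, hmul]
      have h1 : ((up 0 : SL(2, F)) : Matrix (Fin 2) (Fin 2) F) = 1 := by simp [up, Matrix.one_fin_two]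
      rw [h1, Matrix.one_mul, Matrix.one_mulVec]
      congr 1
      ext q
      fin_cases q <;> simp [hU, up, Matrix.mulVec, dotProduct, Fin.sum_univ_two] <;> ring
    obtain ⟨a1, a2⟩ := hfin _ _ (hget _ _ h3)
    have m1 := hcon _ a1
    have m2 := hcon _ a2
    rw [zero_mul, zero_sub, neg_mem_iff] at m1
    have := div_mem m1 m2
    rw [mul_div_cancel_left₀ _ (mul_ne_zero hj hv1)] at this
    exact hc this

/-- A conjugate transvection with convenient indices. -/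
theorem exists_indices (h4 : 4 ≤ Fintype.card ι) (h1 : Asc M 1) {x φ : ι → F}
    (ht : ∀ a ∈ F₀, InM M (a • x) φ) (hφx : φ ⬝ᵥ x = 0) {i₀ : ι} (hi₀ : φ i₀ ≠ 0) (hx : Irr F₀ x) :
    ∃ (x' φ' : ι → F) (i j k : ι), (∀ a ∈ F₀, InM M (a • x') φ') ∧ φ' ⬝ᵥ x' = 0 ∧ i ≠ j ∧ i ≠ k ∧
      φ' i ≠ 0 ∧ x' j ≠ 0 ∧ x' k / x' j ∉ F₀ := by
  classical
  obtain ⟨j, k, hj, hc⟩ := hx
  by_cases hA : ∃ i, i ≠ j ∧ i ≠ k ∧ φ i ≠ 0
  · obtain ⟨i, h1', h2', h3'⟩ := hA
    exact ⟨x, φ, i, j, k, ht, hφx, h1', h2', h3', hj, hc⟩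
  push Not at hA
  have hjk : j ≠ k := fun e => hc (by rw [← e, div_self hj]; exact one_mem _)
  have hk : x k ≠ 0 := fun e => hc (by rw [e, zero_div]; exact zero_mem _)
  have hsum : φ j * x j + φ k * x k = 0 := by
    rw [← hφx, dotProduct, ← Finset.sum_pair hjk (f := fun y => φ y * x y)]
    refine Finset.sum_subset (Finset.subset_univ _) fun y _ hy => ?_
    simp only [Finset.mem_insert, Finset.mem_singleton, not_or] at hy
    rw [hA y hy.1 hy.2, zero_mul]
  have hboth : φ j ≠ 0 ∧ φ k ≠ 0 := by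
    by_cases e : i₀ = j
    · subst e
      exact ⟨hi₀, fun e => by rw [e, zero_mul, add_zero] at hsum; exact mul_ne_zero hi₀ hj hsum⟩
    · by_cases e' : i₀ = k
      · subst e'
        exact ⟨fun e => by rw [e, zero_mul, zero_add] at hsum; exact mul_ne_zero hi₀ hk hsum, hi₀⟩
      · exact absurd (hA i₀ e e') hi₀
  by_cases hB : ∃ l, l ≠ j ∧ l ≠ k ∧ x l ≠ 0
  · obtain ⟨l, h1', h2', h3'⟩ := hB
    by_cases hlj : x l / x j ∈ F₀
    · refine ⟨x, φ, j, k, l, ht, hφx, hjk, Ne.symm h1', hboth.1, hk, fun e => hc ?_⟩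
      have := div_mem hlj e
      convert this using 1
      field_simp
    · exact ⟨x, φ, k, j, l, ht, hφx, hjk.symm, Ne.symm h2', hboth.2, hj, hlj⟩
  push Not at hB
  obtain ⟨l, hl⟩ := exists_avoid {j, k} (Finset.card_le_two.trans_lt (by omega))
  simp only [Finset.mem_insert, Finset.mem_singleton, not_or] at hl
  obtain ⟨σ, hσ, eσ⟩ := h1 j l (Ne.symm hl.1)
  rw [one_smul] at eσ
  have hx' : (σ : Matrix ι ι F) *ᵥ x = x := by
    rw [eσ, Matrix.add_mulVec, Matrix.one_mulVec, Matrix.vecMulVec_mulVec, ev_dot, hB l hl.1 hl.2]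
    simp
  have hinv := inv_val_of_sq eσ (vmv_mul_vmv_zero (ev_dot_ev hl.1) _ _)
  refine ⟨x, φ ᵥ* ((σ⁻¹ : GL ι F) : Matrix ι ι F), l, j, k, fun a ha => ?_, ?_, hl.1, hl.2, ?_, hj, hc⟩
  · have := (ht a ha).conj hσ
    rwa [Matrix.mulVec_smul, hx'] at this
  · rw [← Matrix.dotProduct_mulVec]
    conv_lhs => rw [← hx', Matrix.mulVec_mulVec, ← Units.val_mul, inv_mul_cancel, Units.val_one, Matrix.one_mulVec]
    exact hφx
  · rw [hinv, Matrix.vecMul_sub, Matrix.vecMul_one, Pi.sub_apply, hA l hl.1 hl.2, Matrix.vecMul_vecMulVec, dot_ev]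
    simp [ev, hboth.1]

/-- **The dichotomy.** -/
theorem dichotomy {r : ℕ} (hr : r.Prime) (h5 : 5 ≤ Fintype.card ι) (hcard : Fintype.card F = Nat.card F₀ ^ r)
    (hEl : ∀ c ∈ F₀, Asc M c) : specialLinear ι F ≤ M ∨ M ≤ subfieldSubgroup F₀ 1 := by
  haveI : Nonempty ι := Fintype.card_pos_iff.mp (by omega)
  haveI : Nontrivial ι := Fintype.one_lt_card_iff_nontrivial.mp (by omega)
  have hmid := mid_of_prime hr hcard
  by_cases h : ∀ g ∈ M, ∀ i, ¬ Irr F₀ fun k => (g : Matrix ι ι F) k i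
  · exact Or.inr (le_subfieldSubgroup_of_columns hEl h)
  push Not at h
  obtain ⟨g, hg, i, hx⟩ := h
  left
  obtain ⟨j, hji⟩ := exists_ne i
  set x : ι → F := fun k => (g : Matrix ι ι F) k i with hxdef
  set φ : ι → F := fun k => ((g⁻¹ : GL ι F) : Matrix ι ι F) j k with hφdef
  have ht : ∀ a ∈ F₀, InM M (a • x) φ := fun a ha => by
    have := (hEl a ha i j hji.symm).conj hg
    rwa [Matrix.mulVec_smul, Matrix.mulVec_single_one, Matrix.single_one_vecMul] at this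
  have hφx : φ ⬝ᵥ x = 0 := by
    show (((g⁻¹ : GL ι F) : Matrix ι ι F) * (g : Matrix ι ι F)) j i = 0
    rw [← Units.val_mul, inv_mul_cancel, Units.val_one, Matrix.one_apply_ne hji]
  obtain ⟨i₀, hi₀⟩ : ∃ i₀, φ i₀ ≠ 0 := by
    by_contra hc
    push Not at hc
    exact Matrix.GeneralLinearGroup.det_ne_zero g⁻¹ (Matrix.det_eq_zero_of_row_eq_zero j hc)
  rcases hr.eq_two_or_odd with rfl | hodd
  · obtain ⟨c, hc, hcF⟩ := exists_param_quadratic h5 hcard hEl
      (by simpa using ht 1 (one_mem _)) hφx hi₀ hx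
    exact specialLinear_le_of_asc (by omega) hmid hEl hc hcF
  · obtain ⟨x', φ', i', j', k', ht', hφx', h1, h2, h3, h4, h5⟩ :=
      exists_indices (by omega) (hEl 1 (one_mem _)) ht hφx hi₀ hx
    have := hr.two_le
    obtain ⟨c, hc, hcF⟩ := exists_param_odd (by omega) (by omega) hcard hmid hEl ht' hφx' h1 h2 h3 h4 h5
    exact specialLinear_le_of_asc (by omega) hmid hEl hc hcF

/-- **Subfield groups of prime index are maximal in `SL`.** -/
theorem subfieldSubgroup_maximal {r : ℕ} (hr : r.Prime) (h5 : 5 ≤ Fintype.card ι)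
    (hcard : Fintype.card F = Nat.card F₀ ^ r) (P : GL ι F) :
    IsMaximalIn (specialLinear ι F) (subfieldSubgroup F₀ P ⊓ specialLinear ι F) := by
  classical
  haveI : Nontrivial ι := Fintype.one_lt_card_iff_nontrivial.mp (by omega)
  have hF0 : F₀ ≠ ⊤ := by
    rintro rfl
    rw [Nat.card_congr (Subfield.topEquiv : (⊤ : Subfield F) ≃+* F).toEquiv, Nat.card_eq_fintype_card] at hcard
    have := (Nat.pow_right_injective Fintype.one_lt_card ((pow_one (Fintype.card F)).trans hcard)).symm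
    exact hr.ne_one this
  have hnot := not_le_subfieldSubgroup hF0 P
  refine ⟨lt_of_le_not_ge inf_le_right fun h => hnot (h.trans inf_le_left), fun K hK hKS => ?_⟩
  set M : Subgroup (GL ι F) := K.comap (MulAut.conj P).toMonoidHom with hM
  have hdetc : ∀ y : GL ι F, (MulAut.conj P y : GL ι F) ∈ specialLinear ι F ↔ y ∈ specialLinear ι F := by
    intro y
    simp only [MulAut.conj_apply, Cfsg.Agent.GeoClasses.mem_specialLinear_iff, Units.val_mul]
    rw [Matrix.det_mul, Matrix.det_mul, mul_right_comm, ← Matrix.det_mul, ← Units.val_mul, mul_inv_cancel,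
      Units.val_one, Matrix.det_one, one_mul]
  have hmemP : ∀ y ∈ subfieldSubgroup F₀ (1 : GL ι F), MulAut.conj P y ∈ subfieldSubgroup F₀ P := by
    intro y hy
    rw [subfieldSubgroup, Subgroup.mem_map] at hy ⊢
    obtain ⟨w, hw, rfl⟩ := hy
    exact ⟨w, hw, by simp⟩
  have hEl : ∀ c ∈ F₀, Asc M c := by
    intro c hc i j hij
    let T : GL ι F₀ := Matrix.SpecialLinearGroup.toGL (Matrix.SpecialLinearGroup.transvection hij (⟨c, hc⟩ : F₀))
    refine ⟨Matrix.GeneralLinearGroup.map (F₀.subtype : F₀ →+* F) T, hK ⟨hmemP _ ?_, (hdetc _).2 ?_⟩, ?_⟩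
    · exact ⟨_, Subgroup.mem_sup_left ⟨T, rfl⟩, by simp⟩
    · rw [Cfsg.Agent.GeoClasses.mem_specialLinear_iff]
      show (F₀.subtype.mapMatrix ((Matrix.SpecialLinearGroup.transvection hij (⟨c, hc⟩ : F₀) :
        Matrix.SpecialLinearGroup ι F₀) : Matrix ι ι F₀)).det = 1
      rw [← RingHom.map_det, Matrix.SpecialLinearGroup.det_coe, map_one]
    · ext a b
      simp [T, Matrix.SpecialLinearGroup.transvection_coe, vecMulVec_apply, Matrix.single, ev, Pi.single_apply,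
        Matrix.one_apply, eq_comm, ite_and]
      split_ifs <;> simp_all
  rcases dichotomy hr h5 hcard hEl with h | h
  · right
    refine le_antisymm hKS fun y hy => ?_
    have hz := (MulAut.conj P).apply_symm_apply y
    have h1 := h ((hdetc _).1 (hz ▸ hy))
    rw [hM, Subgroup.mem_comap, MulEquiv.coe_toMonoidHom, hz] at h1
    exact h1
  · left
    refine le_antisymm (fun y hy => ⟨?_, hKS hy⟩) hK
    have hz := (MulAut.conj P).apply_symm_apply y
    have h1 := hmemP _ (h (show (MulAut.conj P).symm y ∈ M by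
      rw [hM, Subgroup.mem_comap, MulEquiv.coe_toMonoidHom, hz]; exact hy))
    rwa [hz] at h1

end Cfsg.Agent.MaxSub.SubfieldMax
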